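import Cfsg.Agent.OddInvol.Torus
import Cfsg.Agent.OddInvol.WeylSum
import Cfsg.Agent.Chevalley.Order

/-!
Part 19: the centraliser of a torus element of order two in Bruhat normal form, and fusion in the
torus.
-/

set_option autoImplicit false

namespace CfsgLib.OddInvol

open Cfsg.Lie CfsgLib.Chevalley
open scoped Matrix Pointwise

variable {D : ChevalleyDatum} (S : Sys D) {F : Type*} [Field F]

/-- The roots trivial on the mask. -/
def evenSet (e : ℕ) : Set ℕ := {r | cls S e r = 0}

theorem closed_inter_even {P : Set ℕ} (hP : S.Closed P) (e : ℕ) :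
    S.Closed (P ∩ evenSet S e) := by
  intro r hr s hs hrp hsp k hk a b ha hb hv
  refine ⟨hP r hr.1 s hs.1 hrp hsp k hk a b ha hb hv, ?_⟩
  have h : cls S e k = (a : ZMod 2) * cls S e r + (b : ZMod 2) * cls S e s := by
    simp only [cls, Finset.mul_sum, ← Finset.sum_add_distrib]
    refine Finset.sum_congr rfl fun m hm => ?_
    rw [hv m (Finset.mem_range.mp hm)]
    split_ifs <;> simp
  show cls S e k = 0
  rw [h, hr.2, hs.2, mul_zero, mul_zero, add_zero]

theorem conj_ordProd (c : ℕ → Fˣ) (t : ℕ → F) (d : ℕ) :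
    ∀ m, D.nroots - m ≤ d → tor D F c * S.ordProd F t m * (tor D F c)⁻¹ =
      S.ordProd F (fun r => (torusVal D c r : F) * t r) m := by
  induction d with
  | zero =>
    intro m hm
    rw [S.ordProd_of_le F t (by omega), S.ordProd_of_le F _ (by omega)]
    group
  | succ d ih =>
    intro m hm
    by_cases hml : m < D.nroots
    · rw [S.ordProd_succ F _ hml, S.ordProd_succ F _ hml, ← ih (m + 1) (by omega),
        ← S.tor_conj F c hml]
      group
    · rw [S.ordProd_of_le F t (by omega), S.ordProd_of_le F _ (by omega)]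
      group

theorem mem_even_of_commute {e : ℕ} {c : ℕ → Fˣ} (hc : HasMask S e c) (h2 : (2 : F) ≠ 0)
    {P : Set ℕ} (hP : S.Closed P) {u : GL D.Idx F} (hu : u ∈ uSub D F P)
    (hcomm : tor D F c * u * (tor D F c)⁻¹ = u) : u ∈ uSub D F (P ∩ evenSet S e) := by
  obtain ⟨t, ht, rfl⟩ := S.exists_ordProd_half F hP hu
  rw [conj_ordProd S c t _ _ le_rfl] at hcomm
  refine S.ordProd_mem F t le_rfl fun r h1 h2' => ?_
  by_cases h0 : t r = 0
  · exact Or.inr h0
  refine Or.inl ⟨(ht r h0).1, sgnU_injective h2 ?_⟩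
  have h3 := S.ordProd_inj_half F hcomm h1 h2'
  have h4 : (torusVal D c r : F) = 1 := by
    rwa [mul_left_eq_self₀, or_iff_left h0] at h3
  rw [← hc r h2', show sgnU F (0 : ZMod 2) = 1 by simp [sgnU]]
  exact Units.ext (by simpa using h4)

theorem commute_of_even {e : ℕ} {c : ℕ → Fˣ} (hc : HasMask S e c) {P : Set ℕ} {u : GL D.Idx F}
    (hu : u ∈ uSub D F (P ∩ evenSet S e)) : Commute (tor D F c) u := by
  induction hu using Subgroup.closure_induction with
  | mem x hx =>
    obtain ⟨r, t, ⟨⟨-, hr⟩, hrp⟩, hx⟩ := hx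
    obtain ⟨-, hr2⟩ := (S.pos_iff r).mp hrp
    rw [S.eq_xG F hx, commute_iff_eq, ← mul_inv_eq_iff_eq_mul, S.tor_conj F c hr2]
    have : torusVal D c r = 1 := by rw [hc r hr2, show cls S e r = 0 from hr]; simp [sgnU]
    rw [this, Units.val_one, one_mul]
  | one => exact Commute.one_right _
  | mul a b _ _ ha hb => exact ha.mul_right hb
  | inv a _ ha => exact ha.inv_right

include S in
theorem flip_neg (n : ↥(D.monomialSubgroup F)) {u : GL D.Idx F}
    (hu : u ∈ uSub D F (S.flipSet F n)) :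
    (n : GL D.Idx F) * u * (n : GL D.Idx F)⁻¹ ∈ D.negUnipotent F := by
  refine closure_conj_mem ?_ hu
  rintro x ⟨r, t, ⟨⟨hr, hr1⟩, -⟩, hx⟩
  obtain ⟨a, -, hat⟩ := S.conj_root F n ⟨r, hr⟩
  rw [S.eq_xG F hx, show S.xG F r t = S.xG F (⟨r, hr⟩ : Fin D.nroots) t from rfl, (hat t).1]
  exact S.xG_mem_negUnipotent F hr1 _

include S in
/-- The parts of the normal form of an element intertwining two torus elements. -/
theorem intertwine {c c' : ℕ → Fˣ} {b u : GL D.Idx F} {n : ↥(D.monomialSubgroup F)}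
    (hb : b ∈ D.borelSubgroup F) (hu : u ∈ uSub D F (S.flipSet F n))
    (h : tor D F c' * (b * (n : GL D.Idx F) * u) = b * (n : GL D.Idx F) * u * tor D F c) :
    tor D F c * u = u * tor D F c ∧ tor D F c' * (n : GL D.Idx F) = (n : GL D.Idx F) * tor D F c ∧
      tor D F c' * b = b * tor D F c' := by
  set s := tor D F c with hs
  set t := tor D F c' with ht
  have hsH : s ∈ D.diagonalSubgroup F := by rw [S.diagonal_eq]; exact ⟨c, rfl⟩
  have htH : t ∈ D.diagonalSubgroup F := by rw [S.diagonal_eq]; exact ⟨c', rfl⟩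
  have hns : (n : GL D.Idx F) * s * (n : GL D.Idx F)⁻¹ ∈ D.diagonalSubgroup F :=
    (Subgroup.mem_normalizer_iff.mp (S.monomial_le_normalizer F n.2) _).mp hsH
  set k := t * ((n : GL D.Idx F) * s * (n : GL D.Idx F)⁻¹)⁻¹ with hk
  have hkH : k ∈ D.diagonalSubgroup F := mul_mem htH (inv_mem hns)
  have hus : s * u * s⁻¹ ∈ uSub D F (S.flipSet F n) := S.tor_conj_uSub F c hu
  have hnu := flip_neg S n hu
  have hnus := flip_neg S n hus
  have hbk : t * b * t⁻¹ * k ∈ D.borelSubgroup F :=
    mul_mem (mul_mem (mul_mem (Subgroup.mem_sup_right htH) hb) (inv_mem (Subgroup.mem_sup_right htH)))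
      (Subgroup.mem_sup_right hkH)
  have h' : t * b * t⁻¹ * k * (n : GL D.Idx F) * (s * u * s⁻¹) = b * (n : GL D.Idx F) * u := by
    calc _ = t * (b * (n : GL D.Idx F) * u) * s⁻¹ := by rw [hk]; group
      _ = _ := by rw [h]; group
  obtain ⟨e1, e2⟩ := S.normal_form_unique F hbk hb hnus hnu h'
  obtain ⟨v, hv, d, rfl⟩ := (S.mem_borel F).mp hb
  have hdH : tor D F d ∈ D.diagonalSubgroup F := by rw [S.diagonal_eq]; exact ⟨d, rfl⟩
  have hcomm : t * tor D F d = tor D F d * t := S.diagonal_comm F htH hdH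
  have hv' : t * v * t⁻¹ ∈ D.posUnipotent F :=
    (Subgroup.mem_normalizer_iff.mp (S.diagonal_le_normalizer F htH) v).mp hv
  have e1' : t * v * t⁻¹ * (tor D F d * k) = v * tor D F d := by
    rw [← e1]
    calc t * v * t⁻¹ * (tor D F d * k) = t * v * (t⁻¹ * tor D F d) * k := by group
      _ = t * v * (tor D F d * t⁻¹) * k := by
        rw [show t⁻¹ * tor D F d = tor D F d * t⁻¹ from
          (Commute.inv_left hcomm)]
      _ = _ := by group
  have h3 : v⁻¹ * (t * v * t⁻¹) = tor D F d * (tor D F d * k)⁻¹ := by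
    calc v⁻¹ * (t * v * t⁻¹) = v⁻¹ * (t * v * t⁻¹ * (tor D F d * k)) * (tor D F d * k)⁻¹ := by group
      _ = _ := by rw [e1']; group
  have h4 : v⁻¹ * (t * v * t⁻¹) ∈ D.posUnipotent F ⊓ D.diagonalSubgroup F := by
    refine ⟨Subgroup.mul_mem _ (Subgroup.inv_mem _ hv) hv', ?_⟩
    rw [h3]
    exact Subgroup.mul_mem _ hdH (Subgroup.inv_mem _ (Subgroup.mul_mem _ hdH hkH))
  rw [S.posUnipotent_inf_diagonal F, Subgroup.mem_bot] at h4
  have hk1 : k = 1 := by
    rw [h4, eq_comm, mul_inv_eq_one] at h3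
    exact mul_eq_left.mp h3.symm
  refine ⟨by rw [← mul_inv_eq_iff_eq_mul]; exact e2, ?_, ?_⟩
  · rw [hk, mul_inv_eq_one] at hk1
    rw [hk1]; group
  · rw [inv_mul_eq_one] at h4
    calc t * (v * tor D F d) = t * v * t⁻¹ * (t * tor D F d) := by group
      _ = v * (tor D F d * t) := by rw [← h4, hcomm]
      _ = _ := by group

include S in
/-- The permutation of an intertwining monomial element carries one mask to the other. -/
theorem carries_of_comm {e e' : ℕ} {c c' : ℕ → Fˣ} (hc : HasMask S e c) (hc' : HasMask S e' c')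
    (h2 : (2 : F) ≠ 0) {n : ↥(D.monomialSubgroup F)}
    (h : tor D F c' * (n : GL D.Idx F) = (n : GL D.Idx F) * tor D F c) :
    Carries S e e' (S.perm F n) := by
  obtain ⟨d, hd, hval⟩ := conj_tor S n c
  have : tor D F d = tor D F c' := by rw [← hd, ← h]; group
  intro r
  refine sgnU_injective h2 ?_
  rw [← hc' _ (Fin.isLt _), ← hc r r.isLt, ← hval r, torusVal_eq_of_tor S this (Fin.isLt _)]

include S in
theorem comm_of_carries {e e' : ℕ} {c c' : ℕ → Fˣ} (hc : HasMask S e c) (hc' : HasMask S e' c')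
    {n : ↥(D.monomialSubgroup F)} (h : Carries S e e' (S.perm F n)) :
    tor D F c' * (n : GL D.Idx F) = (n : GL D.Idx F) * tor D F c := by
  obtain ⟨d, hd, hval⟩ := conj_tor S n c
  have : tor D F d = tor D F c' := by
    refine tor_eq_of_mask S (e := e') (fun r hr => ?_) hc'
    obtain ⟨r', hr'⟩ := (S.perm F n).surjective ⟨r, hr⟩
    have h1 := hval r'
    rw [hc r' r'.isLt, ← h r', hr'] at h1
    exact h1
  rw [← this, ← hd]
  group

open Classical in
/-- The number of positive roots trivial on the mask. -/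
noncomputable def evenPos (e : ℕ) : ℕ :=
  ((Finset.Ico (D.nroots / 2) D.nroots).filter fun r => cls S e r = 0).card

include S in
/-- Torus elements of order two with different root counts are not conjugate. -/
theorem carries_of_conj {e e' : ℕ} {c c' : ℕ → Fˣ} (hc : HasMask S e c) (hc' : HasMask S e' c')
    (h2 : (2 : F) ≠ 0) {x : GL D.Idx F} (hx : x ∈ D.group F)
    (h : tor D F c' * x = x * tor D F c) : ∃ σ, Carries S e e' σ := by
  obtain ⟨b, hb, n, u, hu, rfl⟩ := S.normal_form_exists F hx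
  obtain ⟨-, hn, -⟩ := intertwine S hb hu h
  exact ⟨_, carries_of_comm S hc hc' h2 hn⟩

variable [Fintype F]

/-- The order of the centraliser of a torus element of order two. -/
theorem natCard_centralizer {e : ℕ} {c : ℕ → Fˣ} (hc : HasMask S e c) (h2 : (2 : F) ≠ 0)
    {g : ↥(D.group F)} (hg : (g : GL D.Idx F) = tor D F c)
    [DecidablePred (Carries S e e)] :
    Nat.card (Subgroup.centralizer ({g} : Set ↥(D.group F))) =
      Fintype.card F ^ evenPos S e * Nat.card (D.diagonalSubgroup F) *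
        ∑ σ ∈ (S.wSet (List.range D.rank)).filter (Carries S e e),
          Fintype.card F ^ (evenInv S e σ).card := by
  classical
  set W := (S.wSet (List.range D.rank)).filter (Carries S e e)
  set s := tor D F c with hs
  have hsH : s ∈ D.diagonalSubgroup F := by rw [S.diagonal_eq]; exact ⟨c, rfl⟩
  have hmemC : ∀ y : ↥(D.group F), y ∈ Subgroup.centralizer ({g} : Set ↥(D.group F)) ↔
      s * (y : GL D.Idx F) = (y : GL D.Idx F) * s := by
    intro y
    rw [Subgroup.mem_centralizer_singleton_iff, ← hg]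
    constructor
    · intro h; exact (congrArg Subtype.val h).symm
    · intro h; exact Subtype.ext h.symm
  have hrep : ∀ σ : W, ∃ n : ↥(D.monomialSubgroup F), S.perm F n = σ.1 := by
    intro σ
    obtain ⟨L, hL⟩ := S.mem_wSet_range.mp (Finset.mem_filter.mp σ.2).1
    exact ⟨S.wN F L, by rw [S.perm_wN, hL]⟩
  choose rep hrep using hrep
  have hrepc : ∀ σ : W, s * (rep σ : GL D.Idx F) = (rep σ : GL D.Idx F) * s := fun σ =>
    comm_of_carries S hc hc (by rw [hrep]; exact (Finset.mem_filter.mp σ.2).2)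
  let Dom := Σ σ : W, (↥(uSub D F (Set.univ ∩ evenSet S e)) × ↥(D.diagonalSubgroup F)) ×
    ↥(uSub D F (S.flipSet F (rep σ) ∩ evenSet S e))
  have hB : ∀ {v h : GL D.Idx F}, v ∈ uSub D F (Set.univ ∩ evenSet S e) →
      h ∈ D.diagonalSubgroup F → v * h ∈ D.borelSubgroup F := fun hv hh =>
    mul_mem (Subgroup.mem_sup_left (uSub_le_posUnipotent F _ hv)) (Subgroup.mem_sup_right hh)
  let f : Dom → ↥(Subgroup.centralizer ({g} : Set ↥(D.group F))) := fun x =>
    ⟨⟨x.2.1.1 * x.2.1.2 * (rep x.1 : GL D.Idx F) * x.2.2,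
      mul_mem (mul_mem (S.borel_le_group F (hB x.2.1.1.2 x.2.1.2.2))
        (S.monomial_le_group F (rep x.1).2))
        (S.posUnipotent_le_group F (uSub_le_posUnipotent F _ x.2.2.2))⟩, (hmemC _).mpr (by
      have c1 : Commute s (x.2.1.1 : GL D.Idx F) := commute_of_even S hc x.2.1.1.2
      have c2 : Commute s (x.2.1.2 : GL D.Idx F) := S.diagonal_comm F hsH x.2.1.2.2
      have c3 : Commute s (rep x.1 : GL D.Idx F) := hrepc x.1
      have c4 : Commute s (x.2.2 : GL D.Idx F) := commute_of_even S hc x.2.2.2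
      exact ((c1.mul_right c2).mul_right c3).mul_right c4)⟩
  have hsub : ∀ (P : Set ℕ), uSub D F (P ∩ evenSet S e) ≤ uSub D F P := fun P =>
    uSub_mono Set.inter_subset_left
  have hf : Function.Bijective f := by
    refine ⟨?_, ?_⟩
    · rintro ⟨σ, ⟨⟨v, hv⟩, ⟨h, hh⟩⟩, ⟨u, hu⟩⟩ ⟨τ, ⟨⟨v', hv'⟩, ⟨h', hh'⟩⟩, ⟨u', hu'⟩⟩ e1
      have e' : v * h * (rep σ : GL D.Idx F) * u = v' * h' * (rep τ : GL D.Idx F) * u' :=
        congrArg Subtype.val (congrArg Subtype.val e1)
      have hH := S.bruhat_unique F (hB hv hh)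
        (Subgroup.mem_sup_left (uSub_le_posUnipotent F _ hu)) (hB hv' hh')
        (Subgroup.mem_sup_left (uSub_le_posUnipotent F _ hu')) (rep σ).2 (rep τ).2 e'
      have hperm : S.perm F (rep σ) = S.perm F (rep τ) := (S.perm_eq_iff F).mpr hH
      rw [hrep, hrep] at hperm
      obtain rfl : σ = τ := Subtype.ext hperm
      obtain ⟨e2, rfl⟩ := S.normal_form_unique F (hB hv hh) (hB hv' hh')
        (flip_neg S _ (hsub _ hu)) (flip_neg S _ (hsub _ hu')) e'
      have h3 : v'⁻¹ * v ∈ D.posUnipotent F ⊓ D.diagonalSubgroup F := by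
        refine ⟨Subgroup.mul_mem _ (Subgroup.inv_mem _ (uSub_le_posUnipotent F _ hv'))
          (uSub_le_posUnipotent F _ hv), ?_⟩
        have h4 : v'⁻¹ * v = h' * h⁻¹ := by
          calc v'⁻¹ * v = v'⁻¹ * (v * h) * h⁻¹ := by group
            _ = _ := by rw [e2]; group
        rw [h4]
        exact Subgroup.mul_mem _ hh' (Subgroup.inv_mem _ hh)
      rw [S.posUnipotent_inf_diagonal F, Subgroup.mem_bot, inv_mul_eq_one] at h3
      subst h3
      obtain rfl := mul_left_cancel e2
      rfl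
    · rintro ⟨⟨y, hy⟩, hyC⟩
      obtain ⟨b, hb, n, u, hu, rfl⟩ := S.normal_form_exists F hy
      obtain ⟨hu1, hn, hb1⟩ := intertwine S hb hu ((hmemC _).mp hyC)
      obtain ⟨L, hL⟩ := S.exists_wperm F n
      let σ : W := ⟨S.perm F n, Finset.mem_filter.mpr
        ⟨S.mem_wSet_range.mpr ⟨L, hL⟩, carries_of_comm S hc hc h2 hn⟩⟩
      have hset : S.flipSet F (rep σ) = S.flipSet F n := by
        simp only [Sys.flipSet, hrep]
        rfl
      have hk : n * (rep σ)⁻¹ ∈ hSub D F := by
        rw [← S.ker_perm F, MonoidHom.mem_ker, map_mul, map_inv, hrep, mul_inv_cancel]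
      rw [hSub, Subgroup.mem_subgroupOf] at hk
      obtain ⟨v, hv, d, rfl⟩ := (S.mem_borel F).mp hb
      have hdH : tor D F d ∈ D.diagonalSubgroup F := by rw [S.diagonal_eq]; exact ⟨d, rfl⟩
      have hv1 : s * v * s⁻¹ = v := by
        have hc' : s * tor D F d = tor D F d * s := S.diagonal_comm F hsH hdH
        calc s * v * s⁻¹ = s * (v * tor D F d) * (s * tor D F d)⁻¹ := by group
          _ = v * tor D F d * s * (tor D F d * s)⁻¹ := by rw [hc', hb1]
          _ = v := by group
      have hu' : s * u * s⁻¹ = u := mul_inv_eq_iff_eq_mul.mpr hu1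
      refine ⟨⟨σ, ⟨⟨v, mem_even_of_commute S hc h2 S.closed_univ (by rwa [uSub_univ]) hv1⟩,
        ⟨tor D F d * ((n * (rep σ)⁻¹ : ↥(D.monomialSubgroup F)) : GL D.Idx F), mul_mem hdH hk⟩⟩,
        ⟨u, by rw [hset]; exact mem_even_of_commute S hc h2 (S.closed_flipSet F n) hu hu'⟩⟩,
        Subtype.ext (Subtype.ext ?_)⟩
      simp only [f, Subgroup.coe_mul, Subgroup.coe_inv]
      group
  rw [← Nat.card_congr (Equiv.ofBijective f hf), Nat.card_sigma]
  simp only [Nat.card_prod, S.natCard_uSub F (closed_inter_even S S.closed_univ e)]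
  rw [← Finset.sum_coe_sort W fun σ => Fintype.card F ^ (evenInv S e σ).card, Finset.mul_sum]
  refine Finset.sum_congr rfl fun σ _ => ?_
  rw [S.natCard_uSub F (closed_inter_even S (S.closed_flipSet F _) e)]
  congr 1
  · congr 2
    unfold evenPos
    congr 1
    exact Finset.filter_congr fun r _ => by simp [evenSet]
  · congr 1
    refine (Finset.card_bij (fun (r : Fin D.nroots) _ => (r : ℕ)) (fun r hr => ?_)
      (fun a _ b _ e => Fin.ext e) fun r hr => ?_).symm
    · simp only [evenInv, Finset.mem_filter, mem_invSet] at hr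
      simp only [Finset.mem_filter, Finset.mem_Ico]
      exact ⟨⟨hr.1.1, r.isLt⟩, ⟨r.isLt, by simpa [hrep] using hr.1.2⟩, hr.2⟩
    · simp only [Finset.mem_filter, Finset.mem_Ico] at hr
      obtain ⟨⟨h1, hlt⟩, ⟨_, h3⟩, h4⟩ := hr
      exact ⟨⟨r, hlt⟩, by
        simp only [evenInv, Finset.mem_filter, mem_invSet]
        exact ⟨⟨h1, by simpa [hrep] using h3⟩, h4⟩, rfl⟩

/-- Conjugate masks have equally many trivial positive roots. -/
theorem evenPos_eq_of_carries (e e' : ℕ) {σ : Equiv.Perm (Fin D.nroots)} (h : Carries S e e' σ) :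
    (Finset.univ.filter fun r : Fin D.nroots => cls S e (r : ℕ) = 0).card =
      (Finset.univ.filter fun r : Fin D.nroots => cls S e' (r : ℕ) = 0).card :=
  Finset.card_equiv σ fun r => by simp [h r]

end CfsgLib.OddInvol
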