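import Cfsg.Agent.OddInvol.Main
import Cfsg.Agent.Chevalley.Data.SysF4

/-! Part 10: the certificates of type F4. -/

set_option autoImplicit false
set_option maxHeartbeats 2000000

namespace CfsgLib.OddInvol

open CfsgLib.Chevalley

/-- The certificates of type F4, one for each non-empty set of fundamental roots. -/
def certsF4 : List (List ℕ × Cert) := [
  ([0], .two 44 40 0 (1)),
  ([1], .two 40 39 1 (1)),
  ([0, 1], .contra 2),
  ([2], .two 46 45 2 (1)),
  ([0, 2], .two 46 45 2 (1)),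
  ([1, 2], .fam { M := [46, 45, 44, 43, 42], P := [(42, 1), (43, -1), (44, 2), (45, -1), (46, 1)], B := [[0, 0, 0, 0, 1], [0, 0, 0, -1, 0], [0, 0, 2, 0, 0], [0, -1, 0, 0, 0], [1, 0, 0, 0, 0]], gens := [17, 19, 20, 22, 25, 27], moves := [(some []), (some [2]), none, (some [2, 1]), (some [2, 1, 2])], steps := [(22, 1, 1), (19, 2, 1), (17, 3, -1)], last := (some 4) }),
  ([0, 1, 2], .fam { M := [46, 45, 44, 43, 42], P := [(24, 1), (26, 1), (29, 2), (31, -1), (32, 1)], B := [[0, 0, 0, 0, 1], [0, 0, 0, -1, 0], [0, 0, 2, 0, 0], [0, -1, 0, 0, 0], [1, 0, 0, 0, 0]], gens := [17, 19, 20, 22, 25, 27], moves := [(some []), (some [2]), none, (some [2, 1]), (some [2, 1, 2])], steps := [(22, 1, 1), (19, 2, 1), (17, 3, -1)], last := (some 4) }),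
  ([3], .two 47 46 3 (1)),
  ([0, 3], .two 47 46 3 (1)),
  ([1, 3], .two 47 46 3 (1)),
  ([0, 1, 3], .contra 2),
  ([2, 3], .contra 0),
  ([0, 2, 3], .contra 0),
  ([1, 2, 3], .fam { M := [40, 39, 38, 36], P := [(33, 1), (34, -1), (35, 1), (37, -1)], B := [], gens := [17, 19, 20, 22, 25, 27], moves := [(some []), (some [1]), (some [1, 2]), (some [1, 2, 1])], steps := [(20, 1, 1), (19, 2, -1), (17, 3, 1)], last := none }),
  ([0, 1, 2, 3], .fam { M := [47, 46, 45], P := [(0, 1), (1, 1), (2, 1)], B := [], gens := [21, 22, 23, 24, 25], moves := [(some []), (some [3]), (some [3, 2])], steps := [(23, 1, 1), (21, 2, 1)], last := none })]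

theorem chkCertsF4 : chkCerts Cfsg.Lie.chevF4 tabF4 certsF4 = true := by decide +kernel

end CfsgLib.OddInvol
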