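import Cfsg.Agent.OddInvol.Centralizer

/-!
Part 20: two classes of involutions with their centraliser orders.
-/

set_option autoImplicit false

namespace CfsgLib.OddInvol

open Cfsg.Lie CfsgLib.Chevalley
open scoped Matrix

variable {D : ChevalleyDatum} {T : Tab}

/-- The first mask of an orbit list. -/
def headMask (A : List (ℕ × ℕ × ℕ)) : ℕ := (A.getD 0 (0, 0, 0)).1

theorem orbit_conj (h : Checked D T) {P : ParTab} (hP : chkPar D T P = true)
    {A : List (ℕ × ℕ × ℕ)} (hA : chkOrbit D P A = true)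
    {Bi : Matrix (Fin D.rank) (Fin D.rank) ℤ} (hBi : Bi * cartanMat D = 1)
    (F : Type*) [Field F] {e : ℕ} (he : e ∈ A.map Prod.fst)
    {c₀ c : ℕ → Fˣ} (hc₀ : HasMask h.sys (headMask A) c₀) (hc : HasMask h.sys e c) :
    ∃ x ∈ D.group F, x * tor D F c₀ * x⁻¹ = tor D F c := by
  simp only [chkOrbit, Bool.and_eq_true, Bool.or_eq_true, List.all_eq_true, List.mem_range,
    decide_eq_true_eq] at hA
  obtain ⟨-, hall⟩ := hA
  obtain ⟨⟨e', i', p'⟩, hmem, rfl⟩ := List.mem_map.mp he
  obtain ⟨k, hk, hke⟩ := List.getElem_of_mem hmem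
  have key : ∀ k, k < A.length → ∀ c : ℕ → Fˣ, HasMask h.sys (A.getD k (0, 0, 0)).1 c →
      ∃ x ∈ D.group F, x * tor D F c₀ * x⁻¹ = tor D F c := by
    intro k
    induction k using Nat.strong_induction_on with
    | _ k ih =>
      intro hk c hc
      obtain ⟨-, hrest⟩ := hall k hk
      rcases hrest with rfl | ⟨⟨hp, hi⟩, he⟩
      · exact ⟨1, one_mem _, by rw [tor_eq_of_mask h.sys hc hc₀]; group⟩
      · obtain ⟨cp, hcp⟩ := exists_hasMask (F := F) h.sys Bi hBi
          (A.getD (A.getD k (0, 0, 0)).2.2 (0, 0, 0)).1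
        obtain ⟨x, hx, hxe⟩ := ih _ hp (hp.trans hk) cp hcp
        obtain ⟨d, hd, hdm⟩ := conj_reflect h hP (hall _ (hp.trans hk)).1 hi hcp
        refine ⟨h.sys.nG F (D.simple (A.getD k (0, 0, 0)).2.1) 1 * x,
          mul_mem (h.sys.nG_mem F (h.sys.wf.simple_lt _ hi) 1) hx, ?_⟩
        rw [he] at hc
        rw [tor_eq_of_mask h.sys hc hdm, ← hd, ← hxe]
        group
  refine key k hk c ?_
  rw [List.getD_eq_getElem _ _ hk, hke]
  exact hc

/-- The number of roots trivial on a mask, decidably. -/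
def evenAll (D : ChevalleyDatum) (P : ParTab) (e : ℕ) : ℕ :=
  ((List.range D.nroots).filter fun r => !parB P e r).length

theorem evenAll_eq (h : Checked D T) {P : ParTab} (hP : chkPar D T P = true) {e : ℕ}
    (he : e < 2 ^ D.rank) :
    (Finset.univ.filter fun r : Fin D.nroots => cls h.sys e (r : ℕ) = 0).card = evenAll D P e := by
  rw [evenAll, ← List.toFinset_card_of_nodup ((List.nodup_range).filter _)]
  refine Finset.card_bij (fun s _ => (s : ℕ)) (fun s hs => ?_) (fun s _ t _ e => Fin.ext e)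
    fun k hk => ?_
  · simp only [Finset.mem_filter, Finset.mem_univ, true_and, cls_eq h hP he s.isLt] at hs
    simp only [List.mem_toFinset, List.mem_filter, List.mem_range, Bool.not_eq_true']
    exact ⟨s.isLt, by by_contra hp; simp [hp] at hs⟩
  · simp only [List.mem_toFinset, List.mem_filter, List.mem_range, Bool.not_eq_true'] at hk
    exact ⟨⟨k, hk.1⟩, by
      simp only [Finset.mem_filter, Finset.mem_univ, true_and, cls_eq h hP he hk.1]
      rw [hk.2]; simp, rfl⟩

theorem evenPos_eq (h : Checked D T) {P : ParTab} (hP : chkPar D T P = true) {e N : ℕ}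
    (he : e < 2 ^ D.rank)
    (hN : ((List.range' (D.nroots / 2) (D.nroots - D.nroots / 2)).filter
      fun r => !parB P e r).length = N) : evenPos h.sys e = N := by
  classical
  rw [← hN, evenPos, ← List.toFinset_card_of_nodup ((List.nodup_range').filter _)]
  congr 1
  ext r
  simp only [Finset.mem_filter, Finset.mem_Ico, List.mem_toFinset, List.mem_filter,
    List.mem_range'_1, Bool.not_eq_true']
  constructor
  · rintro ⟨⟨h1, h2⟩, h3⟩
    rw [cls_eq h hP he h2] at h3
    exact ⟨⟨h1, by omega⟩, by by_contra hp; simp [hp] at h3⟩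
  · rintro ⟨⟨h1, h2⟩, h3⟩
    refine ⟨⟨h1, by omega⟩, ?_⟩
    rw [cls_eq h hP he (by omega), h3]
    simp

/-- Two classes of involutions, and their centralisers. -/
theorem two_classes (h : Checked D T) (hS : h.sys.SupportEq) {certs : List (List ℕ × Cert)}
    (hc : chkCerts D T certs = true) {P : ParTab} (hP : chkPar D T P = true)
    {A B : List (ℕ × ℕ × ℕ)} (hAB : chkOrbits D P A B = true)
    {Bi : Matrix (Fin D.rank) (Fin D.rank) ℤ} (hBi : Bi * cartanMat D = 1)
    (hA0 : headMask A ≠ 0) (hB0 : headMask B ≠ 0)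
    (hne : evenAll D P (headMask A) ≠ evenAll D P (headMask B))
    (F : Type*) [Field F] [Fintype F] (hF : Odd (Fintype.card F)) {l NA NB SA SB : ℕ}
    (hH : Nat.card (D.diagonalSubgroup F) = (Fintype.card F - 1) ^ l)
    (hNA : evenPos h.sys (headMask A) = NA) (hNB : evenPos h.sys (headMask B) = NB)
    (hSA : ∀ [DecidablePred (Carries h.sys (headMask A) (headMask A))],
      ∑ σ ∈ (h.sys.wSet (List.range D.rank)).filter (Carries h.sys (headMask A) (headMask A)),
        Fintype.card F ^ (evenInv h.sys (headMask A) σ).card = SA)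
    (hSB : ∀ [DecidablePred (Carries h.sys (headMask B) (headMask B))],
      ∑ σ ∈ (h.sys.wSet (List.range D.rank)).filter (Carries h.sys (headMask B) (headMask B)),
        Fintype.card F ^ (evenInv h.sys (headMask B) σ).card = SB) :
    ∃ s t : ↥(D.group F), orderOf s = 2 ∧ orderOf t = 2 ∧ ¬ IsConj s t ∧
      (∀ u : ↥(D.group F), orderOf u = 2 → IsConj u s ∨ IsConj u t) ∧
      Nat.card (Subgroup.centralizer ({s} : Set ↥(D.group F))) =
        Fintype.card F ^ NA * (Fintype.card F - 1) ^ l * SA ∧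
      Nat.card (Subgroup.centralizer ({t} : Set ↥(D.group F))) =
        Fintype.card F ^ NB * (Fintype.card F - 1) ^ l * SB := by
  classical
  set S := h.sys with hSdef
  have h2 : (2 : F) ≠ 0 := by
    intro e
    obtain ⟨p, hp⟩ := CharP.exists F
    obtain ⟨n, hpp, hcard⟩ := FiniteField.card F p
    have hdvd : p ∣ 2 := (CharP.cast_eq_zero_iff F p 2).mp (by exact_mod_cast e)
    have hp2 : p = 2 := (Nat.prime_dvd_prime_iff_eq hpp Nat.prime_two).mp hdvd
    subst hp2
    rw [hcard] at hF
    exact (Nat.not_odd_iff_even.mpr ((Nat.even_pow).mpr ⟨even_two, n.pos.ne'⟩)) hF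
  simp only [chkOrbits, Bool.and_eq_true, Bool.or_eq_true, List.all_eq_true, List.mem_range,
    decide_eq_true_eq, List.contains_iff_mem] at hAB
  obtain ⟨⟨hA, hB⟩, hcov⟩ := hAB
  have hlt : ∀ {L : List (ℕ × ℕ × ℕ)}, chkOrbit D P L = true → headMask L < 2 ^ D.rank := by
    intro L hL
    simp only [chkOrbit, Bool.and_eq_true, List.all_eq_true, List.mem_range,
      decide_eq_true_eq] at hL
    exact (hL.2 0 hL.1).1
  have htor : ∀ c, tor D F c ∈ D.group F := fun c =>
    S.diagonal_le_group F (by rw [S.diagonal_eq]; exact ⟨c, rfl⟩)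
  have horder : ∀ {e : ℕ} {c : ℕ → Fˣ}, e < 2 ^ D.rank → e ≠ 0 → HasMask S e c →
      orderOf (⟨tor D F c, htor c⟩ : ↥(D.group F)) = 2 := by
    intro e c he he0 hec
    haveI : Fact (Nat.Prime 2) := ⟨Nat.prime_two⟩
    refine orderOf_eq_prime ?_ ?_
    · rw [pow_two]
      refine Subtype.ext ?_
      show tor D F c * tor D F c = 1
      refine Units.ext ?_
      rw [Units.val_mul, S.tor_val, dg_mul, Units.val_one]
      refine dg_one fun r hr => ?_
      rw [hec r hr, ← Units.val_mul]
      simp [sgnU]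
      split_ifs <;> simp
    · intro h1
      refine he0 (mask_ext S he (by positivity) fun r hr => ?_)
      have h1' : tor D F c = 1 := congrArg Subtype.val h1
      have h3 : cls S 0 r = 0 := by simp [cls]
      rw [h3]
      refine sgnU_injective h2 ?_
      rw [← hec r hr, torusVal_eq_of_tor S (c' := 1) (by rw [h1', map_one]) hr]
      simp [torusVal, sgnU]
  obtain ⟨ca, hca⟩ := exists_hasMask (F := F) S Bi hBi (headMask A)
  obtain ⟨cb, hcb⟩ := exists_hasMask (F := F) S Bi hBi (headMask B)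
  refine ⟨⟨tor D F ca, htor ca⟩, ⟨tor D F cb, htor cb⟩, horder (hlt hA) hA0 hca,
    horder (hlt hB) hB0 hcb, ?_, ?_, ?_, ?_⟩
  · intro hconj
    obtain ⟨x, hx⟩ := isConj_iff.mp hconj
    have hx' : (x : GL D.Idx F) * tor D F ca * (x : GL D.Idx F)⁻¹ = tor D F cb :=
      congrArg Subtype.val hx
    obtain ⟨σ, hσ⟩ := carries_of_conj S hca hcb h2 x.2 (by rw [← hx']; group)
    exact hne (by rw [← evenAll_eq h hP (hlt hA), ← evenAll_eq h hP (hlt hB)];
                  exact evenPos_eq_of_carries S _ _ hσ)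
  · intro u hu
    have huu : u * u = 1 := by rw [← pow_two, ← hu]; exact pow_orderOf_eq_one u
    have hgg : (u : GL D.Idx F) * u = 1 := congrArg Subtype.val huu
    obtain ⟨x, hx, c, hxc⟩ := exists_tor h hS hc F h2 u.2 hgg
    have htt : tor D F c * tor D F c = 1 := by
      rw [← hxc, show x * (u : GL D.Idx F) * x⁻¹ * (x * (u : GL D.Idx F) * x⁻¹) =
        x * ((u : GL D.Idx F) * u) * x⁻¹ by group, hgg]
      group
    obtain ⟨e, he, hec⟩ := exists_mask S htt
    have hu1 : (u : GL D.Idx F) ≠ 1 := fun e' => by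
      have : u = 1 := Subtype.ext e'
      rw [this, orderOf_one] at hu
      exact absurd hu (by norm_num)
    rcases hcov e he with (he0 | hmA) | hmB
    · exfalso
      apply hu1
      have : tor D F c = 1 := by
        refine Units.ext ?_
        rw [S.tor_val, Units.val_one]
        exact dg_one fun r hr => by rw [hec r hr, he0]; simp [cls, sgnU]
      rw [this] at hxc
      have h' := congrArg (fun z => x⁻¹ * z * x) hxc
      simpa [mul_assoc] using h'
    · left
      obtain ⟨y, hy, hye⟩ := orbit_conj h hP hA hBi F hmA hca hec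
      refine isConj_iff.mpr ⟨⟨y⁻¹ * x, mul_mem (inv_mem hy) hx⟩, Subtype.ext ?_⟩
      show y⁻¹ * x * (u : GL D.Idx F) * (y⁻¹ * x)⁻¹ = tor D F ca
      calc _ = y⁻¹ * (x * (u : GL D.Idx F) * x⁻¹) * y := by group
        _ = _ := by rw [hxc, ← hye]; group
    · right
      obtain ⟨y, hy, hye⟩ := orbit_conj h hP hB hBi F hmB hcb hec
      refine isConj_iff.mpr ⟨⟨y⁻¹ * x, mul_mem (inv_mem hy) hx⟩, Subtype.ext ?_⟩
      show y⁻¹ * x * (u : GL D.Idx F) * (y⁻¹ * x)⁻¹ = tor D F cb
      calc _ = y⁻¹ * (x * (u : GL D.Idx F) * x⁻¹) * y := by group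
        _ = _ := by rw [hxc, ← hye]; group
  · rw [natCard_centralizer S hca h2 (g := ⟨tor D F ca, htor ca⟩) rfl, hH, hNA, hSA]
  · rw [natCard_centralizer S hcb h2 (g := ⟨tor D F cb, htor cb⟩) rfl, hH, hNB, hSB]

end CfsgLib.OddInvol
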