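import Cfsg.Agent.OddInvol.WeylSum
import Cfsg.Agent.Chevalley.Weights.F4

/-! Part 14: tables of type F4. -/

set_option autoImplicit false
set_option maxHeartbeats 2000000
set_option maxRecDepth 100000

namespace CfsgLib.OddInvol

open CfsgLib.Chevalley

/-- The parity tables of type F4. -/
def parF4 : ParTab where
  pm := 0x40c080a080c040b090d050f070301080c040e06020c040808040c02060e040c080103070f050d090b040c080a080c04
  par := 0x6996966996696996966969966996966996696996699696696996966996696996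

theorem chkParF4 : chkPar Cfsg.Lie.chevF4 tabF4 parF4 = true := by decide +kernel

/-- Images for step 0. -/
def ldF40 : LData := [([33, 27, 25, 24], []), ([14, 34, 25, 24], [14])]

theorem chkLdF40 : chkLData Cfsg.Lie.chevF4 levF40 ldF40 = true := by decide +kernel

/-- Images for step 1. -/
def ldF41 : LData := [([33, 27, 25, 24], []), ([34, 20, 30, 24], [20]), ([27, 13, 41, 24], [13, 14])]

theorem chkLdF41 : chkLData Cfsg.Lie.chevF4 levF41 ldF41 = true := by decide +kernel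

/-- Images for step 2. -/
def ldF42 : LData := [([33, 27, 25, 24], []), ([33, 28, 22, 26], [22]), ([34, 28, 17, 31], [17, 20]), ([27, 35, 6, 42], [6, 13, 14]), ([35, 27, 17, 32], [17, 19, 22]), ([28, 34, 6, 43], [6, 12, 22, 14]), ([28, 33, 6, 45], [6, 10, 17, 13, 20]), ([27, 33, 6, 46], [6, 10, 17, 12, 19, 22])]

theorem chkLdF42 : chkLData Cfsg.Lie.chevF4 levF42 ldF42 = true := by decide +kernel

/-- Images for step 3. -/
def ldF43 : LData := [([33, 27, 25, 24], []), ([33, 27, 26, 23], [23]), ([33, 28, 24, 21], [21, 22]), ([34, 28, 24, 16], [16, 17, 20]), ([27, 35, 24, 5], [5, 6, 13, 14]), ([35, 27, 26, 15], [15, 17, 19, 22]), ([28, 34, 26, 4], [4, 6, 12, 22, 14]), ([36, 27, 25, 15], [15, 16, 18, 21, 23]), ([28, 33, 31, 2], [2, 6, 10, 17, 13, 20]), ([29, 34, 25, 4], [4, 5, 11, 21, 23, 14]), ([27, 33, 32, 1], [1, 6, 10, 17, 12, 19, 22]), ([29, 33, 30, 2], [2, 5, 9, 16, 23, 13, 20]), ([27, 33, 32, 0], [0, 5, 9,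 16, 11, 18, 21, 23]), ([29, 33, 30, 1], [1, 4, 8, 15, 21, 12, 19, 22]), ([28, 33, 31, 0], [0, 4, 8, 15, 22, 11, 18, 23, 21]), ([29, 34, 25, 1], [1, 2, 7, 15, 16, 10, 19, 20, 17]), ([28, 34, 26, 0], [0, 2, 7, 15, 17, 9, 18, 20, 23, 16]), ([36, 27, 25, 1], [1, 2, 3, 4, 5, 10, 12, 13, 14, 6]), ([35, 27, 26, 0], [0, 2, 3, 4, 6, 9, 11, 13, 14, 23, 5]), ([27, 35, 24, 0], [0, 1, 7, 16, 17, 8, 18, 19, 21, 22, 15]), ([34, 28, 24, 0], [0, 1, 3, 5, 6, 8, 11, 12, 14, 21, 22, 4]), ([33, 28, 24, 0], [0, 1, 3, 5, 6, 7, 9, 10, 13, 16, 17, 20, 2]), ([33, 27, 26, 0], [0, 2, 3, 4, 6, 7, 8, 10, 12, 15, 17, 19, 22, 1]), ([33, 27, 25, 1], [1, 2, 3, 4, 5, 7, 8, 9, 11, 15, 16, 18, 21, 23, 0])]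

theorem chkLdF43 : chkLData Cfsg.Lie.chevF4 levF43 ldF43 = true := by decide +kernel

end CfsgLib.OddInvol
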