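import Cfsg.Agent.OddInvol.DataF4

/-! Part 15: the recursion of type F4, first character 1. -/

set_option autoImplicit false
set_option maxHeartbeats 4000000
set_option maxRecDepth 100000
set_option Elab.async false

namespace CfsgLib.OddInvol

open CfsgLib.Chevalley

/-- The orbit of 1. -/
def elsF4A : List ℕ := [1, 2, 3]

theorem chkClF4A : chkClosed Cfsg.Lie.chevF4 parF4 elsF4A = true := by decide +kernel

/-- The vector after step 0. -/
def dpF4A0 : List ℕ := [0x0, 0x1, 0x0, 0x1, 0x0, 0x0, 0x0, 0x0, 0x0, 0x0, 0x0, 0x0, 0x0, 0x0, 0x0, 0x0]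

theorem dpF4A0_p0 : chkDp parF4 4 ldF40 (dpInit 4 1) dpF4A0 [1, 2, 3] = true := by decide +kernel

theorem dpF4A0_eq : chkDp parF4 4 ldF40 (dpInit 4 1) dpF4A0 elsF4A = true := by
  rw [show elsF4A = [1, 2, 3] from rfl]
  simp only [chkDp, List.all_append, Bool.and_eq_true]
  exact dpF4A0_p0

/-- The vector after step 1. -/
def dpF4A1 : List ℕ := [0x0, 0x100000001, 0x100000001, 0x100000001, 0x0, 0x0, 0x0, 0x0, 0x0, 0x0, 0x0, 0x0, 0x0, 0x0, 0x0, 0x0]

theorem dpF4A1_p0 : chkDp parF4 4 ldF41 dpF4A0 dpF4A1 [1, 2, 3] = true := by decide +kernel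

theorem dpF4A1_eq : chkDp parF4 4 ldF41 dpF4A0 dpF4A1 elsF4A = true := by
  rw [show elsF4A = [1, 2, 3] from rfl]
  simp only [chkDp, List.all_append, Bool.and_eq_true]
  exact dpF4A1_p0

/-- The vector after step 2. -/
def dpF4A2 : List ℕ := [0x0, 0x10000000300000004000000040000000300000001, 0x10000000300000004000000040000000300000001, 0x10000000300000004000000040000000300000001, 0x0, 0x0, 0x0, 0x0, 0x0, 0x0, 0x0, 0x0, 0x0, 0x0, 0x0, 0x0]

theorem dpF4A2_p0 : chkDp parF4 4 ldF42 dpF4A1 dpF4A2 [1, 2, 3] = true := by decide +kernel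

theorem dpF4A2_eq : chkDp parF4 4 ldF42 dpF4A1 dpF4A2 elsF4A = true := by
  rw [show elsF4A = [1, 2, 3] from rfl]
  simp only [chkDp, List.all_append, Bool.and_eq_true]
  exact dpF4A2_p0

/-- The vector after step 3. -/
def dpF4A3 : List ℕ := [0x0, 0x10000000400000009000000100000001800000020000000270000002c0000002e0000002c00000027000000200000001800000010000000090000000400000001, 0x0, 0x0, 0x0, 0x0, 0x0, 0x0, 0x0, 0x0, 0x0, 0x0, 0x0, 0x0, 0x0, 0x0]

theorem dpF4A3_p0 : chkDp parF4 4 ldF43 dpF4A2 dpF4A3 [1] = true := by decide +kernel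

theorem dpF4A3_eq : chkDp parF4 4 ldF43 dpF4A2 dpF4A3 [1] = true := by
  rw [show [1] = [1] from rfl]
  simp only [chkDp, List.all_append, Bool.and_eq_true]
  exact dpF4A3_p0

/-- The coefficients of the generating function. -/
def csF4A : List ℕ := [1, 4, 9, 16, 24, 32, 39, 44, 46, 44, 39, 32, 24, 16, 9, 4, 1]

theorem packedF4A : packed (48 - 48 / 2 + 1) csF4A = dpF4A3.getD 1 0 := by decide +kernel

end CfsgLib.OddInvol
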