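import Cfsg.Agent.OddInvol.DataF4

/-! Part 15: the recursion of type F4, first character 4. -/

set_option autoImplicit false
set_option maxHeartbeats 4000000
set_option maxRecDepth 100000
set_option Elab.async false

namespace CfsgLib.OddInvol

open CfsgLib.Chevalley

/-- The orbit of 4. -/
def elsF4B : List ℕ := [4, 5, 6, 7, 8, 9, 10, 11, 12, 13, 14, 15]

theorem chkClF4B : chkClosed Cfsg.Lie.chevF4 parF4 elsF4B = true := by decide +kernel

/-- The vector after step 0. -/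
def dpF4B0 : List ℕ := [0x0, 0x0, 0x0, 0x0, 0x100000001, 0x0, 0x0, 0x0, 0x0, 0x0, 0x0, 0x0, 0x0, 0x0, 0x0, 0x0]

theorem dpF4B0_p0 : chkDp parF4 4 ldF40 (dpInit 4 4) dpF4B0 [4, 5, 6, 7, 8, 9, 10, 11, 12, 13, 14, 15] = true := by decide +kernel

theorem dpF4B0_eq : chkDp parF4 4 ldF40 (dpInit 4 4) dpF4B0 elsF4B = true := by
  rw [show elsF4B = [4, 5, 6, 7, 8, 9, 10, 11, 12, 13, 14, 15] from rfl]
  simp only [chkDp, List.all_append, Bool.and_eq_true]
  exact dpF4B0_p0

/-- The vector after step 1. -/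
def dpF4B1 : List ℕ := [0x0, 0x0, 0x0, 0x0, 0x1000000020000000200000001, 0x0, 0x0, 0x0, 0x0, 0x0, 0x0, 0x0, 0x0, 0x0, 0x0, 0x0]

theorem dpF4B1_p0 : chkDp parF4 4 ldF41 dpF4B0 dpF4B1 [4, 5, 6, 7, 8, 9, 10, 11, 12, 13, 14, 15] = true := by decide +kernel

theorem dpF4B1_eq : chkDp parF4 4 ldF41 dpF4B0 dpF4B1 elsF4B = true := by
  rw [show elsF4B = [4, 5, 6, 7, 8, 9, 10, 11, 12, 13, 14, 15] from rfl]
  simp only [chkDp, List.all_append, Bool.and_eq_true]
  exact dpF4B1_p0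

/-- The vector after step 2. -/
def dpF4B2 : List ℕ := [0x0, 0x0, 0x0, 0x0, 0x1000000020000000200000001, 0x1000000020000000200000001, 0x1000000020000000200000001, 0x1000000020000000200000001, 0x0, 0x0, 0x0, 0x0, 0x1000000020000000200000001, 0x1000000020000000200000001, 0x1000000020000000200000001, 0x1000000020000000200000001]

theorem dpF4B2_p0 : chkDp parF4 4 ldF42 dpF4B1 dpF4B2 [4, 5, 6, 7, 8, 9, 10, 11, 12, 13, 14, 15] = true := by decide +kernel

theorem dpF4B2_eq : chkDp parF4 4 ldF42 dpF4B1 dpF4B2 elsF4B = true := by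
  rw [show elsF4B = [4, 5, 6, 7, 8, 9, 10, 11, 12, 13, 14, 15] from rfl]
  simp only [chkDp, List.all_append, Bool.and_eq_true]
  exact dpF4B2_p0

/-- The vector after step 3. -/
def dpF4B3 : List ℕ := [0x0, 0x0, 0x0, 0x0, 0x100000004000000080000000c0000000f000000100000000f0000000c000000080000000400000001, 0x0, 0x0, 0x0, 0x0, 0x0, 0x0, 0x0, 0x0, 0x0, 0x0, 0x0]

theorem dpF4B3_p0 : chkDp parF4 4 ldF43 dpF4B2 dpF4B3 [4] = true := by decide +kernel

theorem dpF4B3_eq : chkDp parF4 4 ldF43 dpF4B2 dpF4B3 [4] = true := by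
  rw [show [4] = [4] from rfl]
  simp only [chkDp, List.all_append, Bool.and_eq_true]
  exact dpF4B3_p0

/-- The coefficients of the generating function. -/
def csF4B : List ℕ := [1, 4, 8, 12, 15, 16, 15, 12, 8, 4, 1]

theorem packedF4B : packed (48 - 48 / 2 + 1) csF4B = dpF4B3.getD 4 0 := by decide +kernel

end CfsgLib.OddInvol
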