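import Cfsg.Agent.OddInvol.Orbit
import Cfsg.Agent.OddInvol.DataF4

/-! Part 16: the orbits on the characters of order two, type F4. -/

set_option autoImplicit false
set_option maxHeartbeats 2000000
set_option maxRecDepth 100000

namespace CfsgLib.OddInvol

open CfsgLib.Chevalley

/-- The orbit of the character 1. -/
def orbF4A : List (ℕ × ℕ × ℕ) := [(1, 0, 0), (3, 0, 0), (2, 1, 1)]

/-- The orbit of the character 4. -/
def orbF4B : List (ℕ × ℕ × ℕ) := [(4, 0, 0), (14, 2, 0), (15, 1, 1), (10, 3, 1), (13, 0, 2), (5, 2, 2), (11, 3, 2), (7, 2, 4), (9, 3, 4), (6, 1, 7), (12, 2, 9), (8, 3, 10)]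

theorem chkOrbF4 : chkOrbits Cfsg.Lie.chevF4 parF4 orbF4A orbF4B = true := by decide +kernel

end CfsgLib.OddInvol
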