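import Cfsg.Agent.OddInvol.Classes
import Cfsg.Agent.OddInvol.CertE8
import Cfsg.Agent.OddInvol.DpE8A
import Cfsg.Agent.OddInvol.DpE8B
import Cfsg.Agent.OddInvol.OrbE8
import Cfsg.Agent.Chevalley.Support

/-! Part 21: the classes of involutions of type E8 in odd characteristic. -/

set_option autoImplicit false
set_option maxHeartbeats 1000000
set_option maxRecDepth 100000

namespace CfsgLib.OddInvol

open Cfsg.Lie CfsgLib.Chevalley

theorem wSet_cardE8 : (sysE8.wSet (List.range chevE8.rank)).card < 2 ^ 32 := by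
  have h := lenSumE8 ℚ 1
  simp only [Sys.lenSum, one_pow, Finset.sum_const, nsmul_eq_mul, mul_one, List.map_const',
    List.sum_replicate] at h
  rw [show chevE8.rank = 8 from rfl]
  simp only [levE80, levE81, levE82, levE83, levE84, levE85, levE86, levE87, List.length_cons, List.length_nil, Nat.reduceAdd] at h
  omega

/-- The generating function of the stabiliser of the mask 1. -/
theorem stabSumE8A (q : ℕ) [DecidablePred (Carries sysE8 1 1)] :
    ∑ σ ∈ (sysE8.wSet (List.range chevE8.rank)).filter (Carries sysE8 1 1),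
      q ^ (evenInv sysE8 1 σ).card =
      ∑ i ∈ Finset.range 121, csE8A.getD i 0 * q ^ i := by
  refine stab_sum sysE8 (e₀ := 1) ?_ (by decide +kernel) wSet_cardE8 q
  have hlt : ∀ e ∈ elsE8A, e < 2 ^ chevE8.rank := by decide +kernel
  have h0 := fun e he => dpInit_spec sysE8 (e₀ := 1) (by decide +kernel) e (hlt e he)
  have h1 := dpStep_spec checkedE8 ℚ chkParE8 chkLevE80 chkLdE80 (e₀ := 1) (els' := elsE8A)
    chkClE8A (fun _ h => h) dpE8A0_eq h0
  have h2 := dpStep_spec checkedE8 ℚ chkParE8 chkLevE81 chkLdE81 (e₀ := 1) (els' := elsE8A)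
    chkClE8A (fun _ h => h) dpE8A1_eq h1
  have h3 := dpStep_spec checkedE8 ℚ chkParE8 chkLevE82 chkLdE82 (e₀ := 1) (els' := elsE8A)
    chkClE8A (fun _ h => h) dpE8A2_eq h2
  have h4 := dpStep_spec checkedE8 ℚ chkParE8 chkLevE83 chkLdE83 (e₀ := 1) (els' := elsE8A)
    chkClE8A (fun _ h => h) dpE8A3_eq h3
  have h5 := dpStep_spec checkedE8 ℚ chkParE8 chkLevE84 chkLdE84 (e₀ := 1) (els' := elsE8A)
    chkClE8A (fun _ h => h) dpE8A4_eq h4
  have h6 := dpStep_spec checkedE8 ℚ chkParE8 chkLevE85 chkLdE85 (e₀ := 1) (els' := elsE8A)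
    chkClE8A (fun _ h => h) dpE8A5_eq h5
  have h7 := dpStep_spec checkedE8 ℚ chkParE8 chkLevE86 chkLdE86 (e₀ := 1) (els' := elsE8A)
    chkClE8A (fun _ h => h) dpE8A6_eq h6
  have h8 := dpStep_spec checkedE8 ℚ chkParE8 chkLevE87 chkLdE87 (e₀ := 1) (els' := [1])
    chkClE8A (by decide +kernel) dpE8A7_eq h7
  exact packedE8A.trans (h8 1 (List.mem_singleton_self _))

/-- The generating function of the stabiliser of the mask 3. -/
theorem stabSumE8B (q : ℕ) [DecidablePred (Carries sysE8 3 3)] :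
    ∑ σ ∈ (sysE8.wSet (List.range chevE8.rank)).filter (Carries sysE8 3 3),
      q ^ (evenInv sysE8 3 σ).card =
      ∑ i ∈ Finset.range 121, csE8B.getD i 0 * q ^ i := by
  refine stab_sum sysE8 (e₀ := 3) ?_ (by decide +kernel) wSet_cardE8 q
  have hlt : ∀ e ∈ elsE8B, e < 2 ^ chevE8.rank := by decide +kernel
  have h0 := fun e he => dpInit_spec sysE8 (e₀ := 3) (by decide +kernel) e (hlt e he)
  have h1 := dpStep_spec checkedE8 ℚ chkParE8 chkLevE80 chkLdE80 (e₀ := 3) (els' := elsE8B)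
    chkClE8B (fun _ h => h) dpE8B0_eq h0
  have h2 := dpStep_spec checkedE8 ℚ chkParE8 chkLevE81 chkLdE81 (e₀ := 3) (els' := elsE8B)
    chkClE8B (fun _ h => h) dpE8B1_eq h1
  have h3 := dpStep_spec checkedE8 ℚ chkParE8 chkLevE82 chkLdE82 (e₀ := 3) (els' := elsE8B)
    chkClE8B (fun _ h => h) dpE8B2_eq h2
  have h4 := dpStep_spec checkedE8 ℚ chkParE8 chkLevE83 chkLdE83 (e₀ := 3) (els' := elsE8B)
    chkClE8B (fun _ h => h) dpE8B3_eq h3
  have h5 := dpStep_spec checkedE8 ℚ chkParE8 chkLevE84 chkLdE84 (e₀ := 3) (els' := elsE8B)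
    chkClE8B (fun _ h => h) dpE8B4_eq h4
  have h6 := dpStep_spec checkedE8 ℚ chkParE8 chkLevE85 chkLdE85 (e₀ := 3) (els' := elsE8B)
    chkClE8B (fun _ h => h) dpE8B5_eq h5
  have h7 := dpStep_spec checkedE8 ℚ chkParE8 chkLevE86 chkLdE86 (e₀ := 3) (els' := elsE8B)
    chkClE8B (fun _ h => h) dpE8B6_eq h6
  have h8 := dpStep_spec checkedE8 ℚ chkParE8 chkLevE87 chkLdE87 (e₀ := 3) (els' := [3])
    chkClE8B (by decide +kernel) dpE8B7_eq h7
  exact packedE8B.trans (h8 3 (List.mem_singleton_self _))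

/-- Two classes of involutions. -/
theorem classesE8 (F : Type*) [Field F] [Fintype F] (hF : Odd (Fintype.card F)) :
    ∃ s t : ↥(chevE8.group F), orderOf s = 2 ∧ orderOf t = 2 ∧ ¬ IsConj s t ∧
      (∀ u : ↥(chevE8.group F), orderOf u = 2 → IsConj u s ∨ IsConj u t) ∧
      Nat.card (Subgroup.centralizer ({s} : Set ↥(chevE8.group F))) =
        Fintype.card F ^ 56 * (Fintype.card F - 1) ^ 8 *
          (∑ i ∈ Finset.range 121, csE8A.getD i 0 * Fintype.card F ^ i) ∧
      Nat.card (Subgroup.centralizer ({t} : Set ↥(chevE8.group F))) =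
        Fintype.card F ^ 64 * (Fintype.card F - 1) ^ 8 *
          (∑ i ∈ Finset.range 121, csE8B.getD i 0 * Fintype.card F ^ i) := by
  have hH : Nat.card (chevE8.diagonalSubgroup F) = (Fintype.card F - 1) ^ 8 := by
    rw [← natCardDiagonalE8 F, one_mul]
  exact two_classes checkedE8 (supportEq_of_chk checkedE8 chkSupp_E8) chkCertsE8 chkParE8
    chkOrbE8 (Bi := !![4, 5, 7, 10, 8, 6, 4, 2; 5, 8, 10, 15, 12, 9, 6, 3; 7, 10, 14, 20, 16, 12, 8, 4; 10, 15, 20, 30, 24, 18, 12, 6; 8, 12, 16, 24, 20, 15, 10, 5; 6, 9, 12, 18, 15, 12, 8, 4; 4, 6, 8, 12, 10, 8, 6, 3; 2, 3, 4, 6, 5, 4, 3, 2]) (by decide +kernel) (by decide +kernel) (by decide +kernel)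
    (by decide +kernel) F hF hH
    (evenPos_eq checkedE8 chkParE8 (by decide +kernel) (by decide +kernel))
    (evenPos_eq checkedE8 chkParE8 (by decide +kernel) (by decide +kernel))
    (@fun i => @stabSumE8A (Fintype.card F) i) (@fun i => @stabSumE8B (Fintype.card F) i)

end CfsgLib.OddInvol
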