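import Cfsg.Agent.OddInvol.Classes
import Cfsg.Agent.OddInvol.CertF4
import Cfsg.Agent.OddInvol.DpF4A
import Cfsg.Agent.OddInvol.DpF4B
import Cfsg.Agent.OddInvol.OrbF4
import Cfsg.Agent.Chevalley.Support

/-! Part 21: the classes of involutions of type F4 in odd characteristic. -/

set_option autoImplicit false
set_option maxHeartbeats 1000000
set_option maxRecDepth 100000

namespace CfsgLib.OddInvol

open Cfsg.Lie CfsgLib.Chevalley

theorem wSet_cardF4 : (sysF4.wSet (List.range chevF4.rank)).card < 2 ^ 32 := by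
  have h := lenSumF4 ℚ 1
  simp only [Sys.lenSum, one_pow, Finset.sum_const, nsmul_eq_mul, mul_one, List.map_const',
    List.sum_replicate] at h
  rw [show chevF4.rank = 4 from rfl]
  simp only [levF40, levF41, levF42, levF43, List.length_cons, List.length_nil, Nat.reduceAdd] at h
  omega

/-- The generating function of the stabiliser of the mask 1. -/
theorem stabSumF4A (q : ℕ) [DecidablePred (Carries sysF4 1 1)] :
    ∑ σ ∈ (sysF4.wSet (List.range chevF4.rank)).filter (Carries sysF4 1 1),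
      q ^ (evenInv sysF4 1 σ).card =
      ∑ i ∈ Finset.range 25, csF4A.getD i 0 * q ^ i := by
  refine stab_sum sysF4 (e₀ := 1) ?_ (by decide +kernel) wSet_cardF4 q
  have hlt : ∀ e ∈ elsF4A, e < 2 ^ chevF4.rank := by decide +kernel
  have h0 := fun e he => dpInit_spec sysF4 (e₀ := 1) (by decide +kernel) e (hlt e he)
  have h1 := dpStep_spec checkedF4 ℚ chkParF4 chkLevF40 chkLdF40 (e₀ := 1) (els' := elsF4A)
    chkClF4A (fun _ h => h) dpF4A0_eq h0
  have h2 := dpStep_spec checkedF4 ℚ chkParF4 chkLevF41 chkLdF41 (e₀ := 1) (els' := elsF4A)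
    chkClF4A (fun _ h => h) dpF4A1_eq h1
  have h3 := dpStep_spec checkedF4 ℚ chkParF4 chkLevF42 chkLdF42 (e₀ := 1) (els' := elsF4A)
    chkClF4A (fun _ h => h) dpF4A2_eq h2
  have h4 := dpStep_spec checkedF4 ℚ chkParF4 chkLevF43 chkLdF43 (e₀ := 1) (els' := [1])
    chkClF4A (by decide +kernel) dpF4A3_eq h3
  exact packedF4A.trans (h4 1 (List.mem_singleton_self _))

/-- The generating function of the stabiliser of the mask 4. -/
theorem stabSumF4B (q : ℕ) [DecidablePred (Carries sysF4 4 4)] :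
    ∑ σ ∈ (sysF4.wSet (List.range chevF4.rank)).filter (Carries sysF4 4 4),
      q ^ (evenInv sysF4 4 σ).card =
      ∑ i ∈ Finset.range 25, csF4B.getD i 0 * q ^ i := by
  refine stab_sum sysF4 (e₀ := 4) ?_ (by decide +kernel) wSet_cardF4 q
  have hlt : ∀ e ∈ elsF4B, e < 2 ^ chevF4.rank := by decide +kernel
  have h0 := fun e he => dpInit_spec sysF4 (e₀ := 4) (by decide +kernel) e (hlt e he)
  have h1 := dpStep_spec checkedF4 ℚ chkParF4 chkLevF40 chkLdF40 (e₀ := 4) (els' := elsF4B)
    chkClF4B (fun _ h => h) dpF4B0_eq h0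
  have h2 := dpStep_spec checkedF4 ℚ chkParF4 chkLevF41 chkLdF41 (e₀ := 4) (els' := elsF4B)
    chkClF4B (fun _ h => h) dpF4B1_eq h1
  have h3 := dpStep_spec checkedF4 ℚ chkParF4 chkLevF42 chkLdF42 (e₀ := 4) (els' := elsF4B)
    chkClF4B (fun _ h => h) dpF4B2_eq h2
  have h4 := dpStep_spec checkedF4 ℚ chkParF4 chkLevF43 chkLdF43 (e₀ := 4) (els' := [4])
    chkClF4B (by decide +kernel) dpF4B3_eq h3
  exact packedF4B.trans (h4 4 (List.mem_singleton_self _))

/-- Two classes of involutions. -/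
theorem classesF4 (F : Type*) [Field F] [Fintype F] (hF : Odd (Fintype.card F)) :
    ∃ s t : ↥(chevF4.group F), orderOf s = 2 ∧ orderOf t = 2 ∧ ¬ IsConj s t ∧
      (∀ u : ↥(chevF4.group F), orderOf u = 2 → IsConj u s ∨ IsConj u t) ∧
      Nat.card (Subgroup.centralizer ({s} : Set ↥(chevF4.group F))) =
        Fintype.card F ^ 16 * (Fintype.card F - 1) ^ 4 *
          (∑ i ∈ Finset.range 25, csF4A.getD i 0 * Fintype.card F ^ i) ∧
      Nat.card (Subgroup.centralizer ({t} : Set ↥(chevF4.group F))) =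
        Fintype.card F ^ 10 * (Fintype.card F - 1) ^ 4 *
          (∑ i ∈ Finset.range 25, csF4B.getD i 0 * Fintype.card F ^ i) := by
  have hH : Nat.card (chevF4.diagonalSubgroup F) = (Fintype.card F - 1) ^ 4 := by
    rw [← natCardDiagonalF4 F, one_mul]
  exact two_classes checkedF4 (supportEq_of_chk checkedF4 chkSupp_F4) chkCertsF4 chkParF4
    chkOrbF4 (Bi := !![2, 3, 4, 2; 3, 6, 8, 4; 2, 4, 6, 3; 1, 2, 3, 2]) (by decide +kernel) (by decide +kernel) (by decide +kernel)
    (by decide +kernel) F hF hH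
    (evenPos_eq checkedF4 chkParF4 (by decide +kernel) (by decide +kernel))
    (evenPos_eq checkedF4 chkParF4 (by decide +kernel) (by decide +kernel))
    (@fun i => @stabSumF4A (Fintype.card F) i) (@fun i => @stabSumF4B (Fintype.card F) i)

end CfsgLib.OddInvol
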